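import Cfsg.Prelude.Def_LocalEven
import Mathlib

set_option autoImplicit false

namespace Cfsg.Agent.Lib.Helper11.Qd

open Matrix

variable {F : Type*} [Field F]

abbrev S3 (F : Type*) [Field F] := Matrix.SpecialLinearGroup (Fin 3) F
abbrev S2 (F : Type*) [Field F] := Matrix.SpecialLinearGroup (Fin 2) F

theorem det_block (M : S3 F) (h0 : M.1 2 0 = 0) (h1 : M.1 2 1 = 0) (h2 : M.1 2 2 = 1) :
    M.1 0 0 * M.1 1 1 - M.1 0 1 * M.1 1 0 = 1 := by
  have := M.2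
  rw [Matrix.det_fin_three, h0, h1, h2] at this
  linear_combination this

def qdSub (F : Type*) [Field F] : Subgroup (S3 F) where
  carrier := {M | (M : Matrix (Fin 3) (Fin 3) F) 2 0 = 0 ∧
    (M : Matrix (Fin 3) (Fin 3) F) 2 1 = 0 ∧ (M : Matrix (Fin 3) (Fin 3) F) 2 2 = 1}
  one_mem' := by simp
  mul_mem' := by
    rintro M N ⟨a0, a1, a2⟩ ⟨b0, b1, b2⟩
    refine ⟨?_, ?_, ?_⟩ <;>
      simp [Matrix.SpecialLinearGroup.coe_mul, Matrix.mul_apply, Fin.sum_univ_three, a0, a1, a2, b0, b1, b2]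
  inv_mem' := by
    rintro M ⟨a0, a1, a2⟩
    have hd := det_block M a0 a1 a2
    refine ⟨?_, ?_, ?_⟩
    · simp [Matrix.SpecialLinearGroup.coe_inv, Matrix.adjugate_fin_three, a0, a1]
    · simp [Matrix.SpecialLinearGroup.coe_inv, Matrix.adjugate_fin_three, a0, a1]
    · simp only [Matrix.SpecialLinearGroup.coe_inv, Matrix.adjugate_fin_three]
      simp
      linear_combination hd

theorem qd_eq : Cfsg.qdOver F = qdSub F := Subgroup.closure_eq (qdSub F)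

theorem mem_qd (M : S3 F) : M ∈ Cfsg.qdOver F ↔ M.1 2 0 = 0 ∧ M.1 2 1 = 0 ∧ M.1 2 2 = 1 := by
  rw [qd_eq]; rfl

abbrev Q (F : Type*) [Field F] := ↥(Cfsg.qdOver F)

theorem r20 (M : Q F) : M.1.1 2 0 = 0 := ((mem_qd M.1).1 M.2).1
theorem r21 (M : Q F) : M.1.1 2 1 = 0 := ((mem_qd M.1).1 M.2).2.1
theorem r22 (M : Q F) : M.1.1 2 2 = 1 := ((mem_qd M.1).1 M.2).2.2

theorem mul_entry (M N : Q F) (a b : Fin 3) :
    (M * N).1.1 a b = M.1.1 a 0 * N.1.1 0 b + M.1.1 a 1 * N.1.1 1 b + M.1.1 a 2 * N.1.1 2 b := by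
  show (M.1.1 * N.1.1) a b = _
  rw [Matrix.mul_apply, Fin.sum_univ_three]

theorem ext_Q {M N : Q F} (h00 : M.1.1 0 0 = N.1.1 0 0) (h01 : M.1.1 0 1 = N.1.1 0 1)
    (h02 : M.1.1 0 2 = N.1.1 0 2) (h10 : M.1.1 1 0 = N.1.1 1 0) (h11 : M.1.1 1 1 = N.1.1 1 1)
    (h12 : M.1.1 1 2 = N.1.1 1 2) : M = N := by
  apply Subtype.ext
  apply Subtype.ext
  ext a b
  fin_cases a <;> fin_cases b
  · exact h00
  · exact h01
  · exact h02
  · exact h10
  · exact h11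
  · exact h12
  · exact (r20 M).trans (r20 N).symm
  · exact (r21 M).trans (r21 N).symm
  · exact (r22 M).trans (r22 N).symm

theorem mul2 (A B : S2 F) (a b : Fin 2) :
    (A * B).1 a b = A.1 a 0 * B.1 0 b + A.1 a 1 * B.1 1 b := by
  show (A.1 * B.1) a b = _
  rw [Matrix.mul_apply, Fin.sum_univ_two]

theorem ext_S2 {A B : S2 F} (h00 : A.1 0 0 = B.1 0 0) (h01 : A.1 0 1 = B.1 0 1)
    (h10 : A.1 1 0 = B.1 1 0) (h11 : A.1 1 1 = B.1 1 1) : A = B := by
  apply Subtype.ext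
  ext a b
  fin_cases a <;> fin_cases b
  · exact h00
  · exact h01
  · exact h10
  · exact h11

/-- the upper-left block -/
def betaFun (M : Q F) : S2 F :=
  ⟨!![M.1.1 0 0, M.1.1 0 1; M.1.1 1 0, M.1.1 1 1], by
    rw [Matrix.det_fin_two_of]
    exact det_block M.1 (r20 M) (r21 M) (r22 M)⟩

theorem bf00 (M : Q F) : (betaFun M).1 0 0 = M.1.1 0 0 := rfl
theorem bf01 (M : Q F) : (betaFun M).1 0 1 = M.1.1 0 1 := rfl
theorem bf10 (M : Q F) : (betaFun M).1 1 0 = M.1.1 1 0 := rfl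
theorem bf11 (M : Q F) : (betaFun M).1 1 1 = M.1.1 1 1 := rfl

theorem one_entry (a b : Fin 3) : (1 : Q F).1.1 a b = (1 : Matrix (Fin 3) (Fin 3) F) a b := rfl
theorem one2_entry (a b : Fin 2) : (1 : S2 F).1 a b = (1 : Matrix (Fin 2) (Fin 2) F) a b := rfl

def beta : Q F →* S2 F where
  toFun := betaFun
  map_one' := by
    apply ext_S2 <;> simp [bf00, bf01, bf10, bf11, one_entry, one2_entry]
  map_mul' M N := by
    apply ext_S2 <;>
      simp only [mul2, bf00, bf01, bf10, bf11, mul_entry, r20, r21, mul_zero, add_zero]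

theorem b00 (M : Q F) : (beta M).1 0 0 = M.1.1 0 0 := rfl
theorem b01 (M : Q F) : (beta M).1 0 1 = M.1.1 0 1 := rfl
theorem b10 (M : Q F) : (beta M).1 1 0 = M.1.1 1 0 := rfl
theorem b11 (M : Q F) : (beta M).1 1 1 = M.1.1 1 1 := rfl

/-- the block-diagonal embedding -/
def iotaMat (A : S2 F) : S3 F :=
  ⟨!![A.1 0 0, A.1 0 1, 0; A.1 1 0, A.1 1 1, 0; 0, 0, 1], by
    have := A.2
    rw [Matrix.det_fin_two] at this
    rw [Matrix.det_fin_three]
    simp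
    linear_combination this⟩

def iotaQ (A : S2 F) : Q F := ⟨iotaMat A, (mem_qd _).2 ⟨rfl, rfl, rfl⟩⟩

theorem iq00 (A : S2 F) : (iotaQ A).1.1 0 0 = A.1 0 0 := rfl
theorem iq01 (A : S2 F) : (iotaQ A).1.1 0 1 = A.1 0 1 := rfl
theorem iq02 (A : S2 F) : (iotaQ A).1.1 0 2 = 0 := rfl
theorem iq10 (A : S2 F) : (iotaQ A).1.1 1 0 = A.1 1 0 := rfl
theorem iq11 (A : S2 F) : (iotaQ A).1.1 1 1 = A.1 1 1 := rfl
theorem iq12 (A : S2 F) : (iotaQ A).1.1 1 2 = 0 := rfl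

theorem beta_iotaQ (A : S2 F) : beta (iotaQ A) = A := by
  apply ext_S2 <;> rfl

def iota : S2 F →* Q F where
  toFun := iotaQ
  map_one' := by
    apply ext_Q <;> simp [iq00, iq01, iq02, iq10, iq11, iq12, one_entry, one2_entry]
  map_mul' A B := by
    apply ext_Q <;>
      simp only [mul_entry, iq00, iq01, iq02, iq10, iq11, iq12, mul2, r20, r21, r22, mul_zero,
        add_zero, zero_mul, mul_one]

theorem beta_iota (A : S2 F) : beta (iota A) = A := beta_iotaQ A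

theorem iota_inj : Function.Injective (iota : S2 F →* Q F) := fun A B h => by
  rw [← beta_iota A, h, beta_iota]

theorem i00 (A : S2 F) : (iota A).1.1 0 0 = A.1 0 0 := rfl
theorem i01 (A : S2 F) : (iota A).1.1 0 1 = A.1 0 1 := rfl
theorem i02 (A : S2 F) : (iota A).1.1 0 2 = 0 := rfl
theorem i10 (A : S2 F) : (iota A).1.1 1 0 = A.1 1 0 := rfl
theorem i11 (A : S2 F) : (iota A).1.1 1 1 = A.1 1 1 := rfl
theorem i12 (A : S2 F) : (iota A).1.1 1 2 = 0 := rfl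

end Cfsg.Agent.Lib.Helper11.Qd
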