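import Cfsg.Agent.Lib.Helper11.Qd.Core

set_option autoImplicit false

namespace Cfsg.Agent.Lib.Helper11.Qd

open Matrix

variable {F : Type*} [Field F]

abbrev K (F : Type*) [Field F] : Subgroup (Q F) := (iota : S2 F →* Q F).range

theorem mem_K (M : Q F) : M ∈ K F ↔ M.1.1 0 2 = 0 ∧ M.1.1 1 2 = 0 := by
  constructor
  · rintro ⟨A, rfl⟩
    exact ⟨rfl, rfl⟩
  · rintro ⟨h1, h2⟩
    refine ⟨beta M, ?_⟩
    apply ext_Q <;> simp [i00, i01, i02, i10, i11, i12, b00, b01, b10, b11, h1, h2]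

theorem K_inf_T : K F ⊓ T F = ⊥ := by
  rw [Subgroup.eq_bot_iff_forall]
  rintro M ⟨⟨A, rfl⟩, hT⟩
  have h : beta (iota A) = 1 := hT
  rw [beta_iota] at h
  rw [h, map_one]

theorem K_sup_T : K F ⊔ T F = ⊤ := by
  rw [eq_top_iff]
  intro M _
  have h1 : iota (beta M) ∈ K F := ⟨_, rfl⟩
  have h2 : (iota (beta M))⁻¹ * M ∈ T F := by
    rw [MonoidHom.mem_ker, map_mul, map_inv, beta_iota, inv_mul_cancel]
  have h3 : M = iota (beta M) * ((iota (beta M))⁻¹ * M) := by group
  rw [h3]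
  exact Subgroup.mul_mem_sup h1 h2

theorem natural : Cfsg.IsNaturalSL2Module F (T F) (K F) := by
  refine ⟨?_, beta.comp (Subgroup.subtype _), psi, ?_, ?_, ?_⟩
  · haveI : (T F).Normal := MonoidHom.normal_ker _
    rw [Subgroup.normalizer_eq_top]
    exact le_top
  · intro A
    exact ⟨⟨iota A, ⟨A, rfl⟩⟩, beta_iota A⟩
  · ext k
    rw [MonoidHom.mem_ker, Subgroup.mem_subgroupOf, Subgroup.mem_centralizer_iff]
    constructor
    · intro h
      obtain ⟨A, hA⟩ := k.2
      have h' : beta k.1 = 1 := h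
      have hA1 : A = 1 := by rw [← beta_iota A, hA]; exact h'
      have hk : k.1 = 1 := by rw [← hA, hA1, map_one]
      intro t _
      rw [hk]
      simp
    · intro h
      show beta k.1 = 1
      have h1 := h (trQ ![1, 0]) (trQ_mem _)
      have h2 := h (trQ ![0, 1]) (trQ_mem _)
      obtain ⟨k02, k12⟩ := (mem_K k.1).1 k.2
      have e1 := congrArg (fun M : Q F => M.1.1 0 2) h1
      have e2 := congrArg (fun M : Q F => M.1.1 1 2) h1
      have e3 := congrArg (fun M : Q F => M.1.1 0 2) h2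
      have e4 := congrArg (fun M : Q F => M.1.1 1 2) h2
      simp only [mul_entry, t00, t01, t02, t10, t11, t12, r22, k02, k12] at e1 e2 e3 e4
      simp at e1 e2 e3 e4
      apply ext_S2 <;> simp [b00, b01, b10, b11, one2_entry, ← e1, ← e2, ← e3, ← e4]
  · intro l v
    refine ⟨⟨l.1 * v.1 * l.1⁻¹, (MonoidHom.normal_ker beta).conj_mem v.1 v.2 l.1⟩, rfl, ?_⟩
    have hw : (l.1 * v.1 * l.1⁻¹) * l.1 = l.1 * v.1 := by group
    obtain ⟨l02, l12⟩ := (mem_K l.1).1 l.2
    have e0 := congrArg (fun M : Q F => M.1.1 0 2) hw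
    have e1 := congrArg (fun M : Q F => M.1.1 1 2) hw
    simp only [mul_entry _ l.1, mul_entry l.1 v.1, r22, l02, l12, mul_zero, zero_add, mul_one,
      zero_mul, add_zero] at e0 e1
    rw [psi_apply, psi_apply]
    show _ = (beta l.1).1.mulVec _
    rw [mv]
    ext a
    fin_cases a
    · simpa [b00, b01] using e0
    · simpa [b10, b11] using e1

end Cfsg.Agent.Lib.Helper11.Qd
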