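import Cfsg.Agent.Lib.Helper11.Qd.Basic

set_option autoImplicit false

namespace Cfsg.Agent.Lib.Helper11.Qd

open Matrix

variable {F : Type*} [Field F]

abbrev T (F : Type*) [Field F] : Subgroup (Q F) := (beta : Q F →* S2 F).ker

theorem mem_T (M : Q F) :
    M ∈ T F ↔ M.1.1 0 0 = 1 ∧ M.1.1 0 1 = 0 ∧ M.1.1 1 0 = 0 ∧ M.1.1 1 1 = 1 := by
  rw [MonoidHom.mem_ker]
  constructor
  · intro h
    refine ⟨?_, ?_, ?_, ?_⟩
    · rw [← b00, h]; simp [one2_entry]
    · rw [← b01, h]; simp [one2_entry]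
    · rw [← b10, h]; simp [one2_entry]
    · rw [← b11, h]; simp [one2_entry]
  · rintro ⟨h1, h2, h3, h4⟩
    apply ext_S2 <;> simp [b00, b01, b10, b11, one2_entry, h1, h2, h3, h4]

def trMat (v : Fin 2 → F) : S3 F :=
  ⟨!![1, 0, v 0; 0, 1, v 1; 0, 0, 1], by rw [Matrix.det_fin_three]; simp⟩

def trQ (v : Fin 2 → F) : Q F := ⟨trMat v, (mem_qd _).2 ⟨rfl, rfl, rfl⟩⟩

theorem t00 (v : Fin 2 → F) : (trQ v).1.1 0 0 = 1 := rfl
theorem t01 (v : Fin 2 → F) : (trQ v).1.1 0 1 = 0 := rfl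
theorem t02 (v : Fin 2 → F) : (trQ v).1.1 0 2 = v 0 := rfl
theorem t10 (v : Fin 2 → F) : (trQ v).1.1 1 0 = 0 := rfl
theorem t11 (v : Fin 2 → F) : (trQ v).1.1 1 1 = 1 := rfl
theorem t12 (v : Fin 2 → F) : (trQ v).1.1 1 2 = v 1 := rfl

theorem trQ_mem (v : Fin 2 → F) : trQ v ∈ T F := (mem_T _).2 ⟨rfl, rfl, rfl, rfl⟩

def psi : Additive (T F) ≃+ (Fin 2 → F) where
  toFun x := ![(Additive.toMul x).1.1.1 0 2, (Additive.toMul x).1.1.1 1 2]
  invFun v := Additive.ofMul ⟨trQ v, trQ_mem v⟩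
  left_inv x := by
    apply Additive.toMul.injective
    apply Subtype.ext
    obtain ⟨h1, h2, h3, h4⟩ := (mem_T _).1 (Additive.toMul x).2
    apply ext_Q <;> simp [t00, t01, t02, t10, t11, t12, h1, h2, h3, h4]
  right_inv v := by
    ext a
    fin_cases a <;> rfl
  map_add' x y := by
    obtain ⟨h1, h2, h3, h4⟩ := (mem_T _).1 (Additive.toMul x).2
    have e0 : (Additive.toMul (x + y)).1.1.1 0 2 =
        (Additive.toMul x).1.1.1 0 2 + (Additive.toMul y).1.1.1 0 2 := by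
      show ((Additive.toMul x).1 * (Additive.toMul y).1).1.1 0 2 = _
      rw [mul_entry, h1, h2, r22]
      ring
    have e1 : (Additive.toMul (x + y)).1.1.1 1 2 =
        (Additive.toMul x).1.1.1 1 2 + (Additive.toMul y).1.1.1 1 2 := by
      show ((Additive.toMul x).1 * (Additive.toMul y).1).1.1 1 2 = _
      rw [mul_entry, h3, h4, r22]
      ring
    ext a
    fin_cases a
    · exact e0
    · exact e1

theorem psi_apply (x : T F) : psi (Additive.ofMul x) = ![x.1.1.1 0 2, x.1.1.1 1 2] := rfl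

theorem T_pgroup (p : ℕ) [Fact p.Prime] [CharP F p] : IsPGroup p (T F) := by
  intro g
  refine ⟨1, ?_⟩
  rw [pow_one]
  have h : psi (Additive.ofMul (g ^ p)) = 0 := by
    rw [ofMul_pow, map_nsmul]
    ext a
    simp [CharP.cast_eq_zero F p]
  have h2 : Additive.ofMul (g ^ p) = 0 := by
    rw [← map_zero (psi : Additive (T F) ≃+ (Fin 2 → F))] at h
    exact psi.injective h
  exact h2

theorem mv (A : S2 F) (w : Fin 2 → F) :
    A.1.mulVec w = ![A.1 0 0 * w 0 + A.1 0 1 * w 1, A.1 1 0 * w 0 + A.1 1 1 * w 1] := by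
  ext a
  fin_cases a <;> simp [Matrix.mulVec, dotProduct, Fin.sum_univ_two]

def xU : S2 F := ⟨!![1, 1; 0, 1], by rw [Matrix.det_fin_two_of]; ring⟩
def yL : S2 F := ⟨!![1, 0; 1, 1], by rw [Matrix.det_fin_two_of]; ring⟩

theorem normal_p_le (p : ℕ) [Fact p.Prime] [Fintype F] [CharP F p] (N : Subgroup (Q F))
    (hN : N.Normal) (hp : IsPGroup p N) : N ≤ T F := by
  classical
  letI act : MulAction N (Fin 2 → F) :=
    { smul := fun n v => (beta n.1).1.mulVec v
      one_smul := by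
        intro v
        show (beta (1 : Q F)).1.mulVec v = v
        rw [map_one]
        exact Matrix.one_mulVec v
      mul_smul := by
        intro a b v
        show (beta (a.1 * b.1)).1.mulVec v = (beta a.1).1.mulVec ((beta b.1).1.mulVec v)
        rw [map_mul, Matrix.mulVec_mulVec]
        rfl }
  have hcard : p ∣ Nat.card (Fin 2 → F) := by
    obtain ⟨n, -, hn⟩ := FiniteField.card F p
    rw [Nat.card_eq_fintype_card, Fintype.card_fun, Fintype.card_fin, hn]
    exact dvd_pow (dvd_pow_self p n.ne_zero) (by norm_num)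
  have h0 : (0 : Fin 2 → F) ∈ MulAction.fixedPoints N (Fin 2 → F) :=
    fun n => Matrix.mulVec_zero _
  obtain ⟨v, hv, hv0⟩ := hp.exists_fixed_point_of_prime_dvd_card_of_fixed_point (Fin 2 → F) hcard h0
  have hWv : ∀ n ∈ N, (beta n).1.mulVec v = v := fun n hn => hv ⟨n, hn⟩
  have hWg : ∀ (g : Q F) (w : Fin 2 → F), (∀ n ∈ N, (beta n).1.mulVec w = w) →
      ∀ n ∈ N, (beta n).1.mulVec ((beta g).1.mulVec w) = (beta g).1.mulVec w := by
    intro g w hw n hn
    have h1 : g⁻¹ * n * g⁻¹⁻¹ ∈ N := hN.conj_mem n hn g⁻¹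
    have h2 := hw _ h1
    have h3 : n * g = g * (g⁻¹ * n * g⁻¹⁻¹) := by group
    have h4 : (beta n).1.mulVec ((beta g).1.mulVec w) = (beta (n * g)).1.mulVec w := by
      rw [map_mul, Matrix.mulVec_mulVec]
      rfl
    have h5 : (beta (g * (g⁻¹ * n * g⁻¹⁻¹))).1.mulVec w =
        (beta g).1.mulVec ((beta (g⁻¹ * n * g⁻¹⁻¹)).1.mulVec w) := by
      rw [map_mul beta g, Matrix.mulVec_mulVec]
      rfl
    rw [h4, h3, h5, h2]
  have hsub : ∀ w1 w2 : Fin 2 → F, (∀ n ∈ N, (beta n).1.mulVec w1 = w1) →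
      (∀ n ∈ N, (beta n).1.mulVec w2 = w2) → ∀ n ∈ N, (beta n).1.mulVec (w1 - w2) = w1 - w2 := by
    intro w1 w2 h1 h2 n hn
    rw [Matrix.mulVec_sub, h1 n hn, h2 n hn]
  have hsm : ∀ (c : F) (w : Fin 2 → F), (∀ n ∈ N, (beta n).1.mulVec w = w) →
      ∀ n ∈ N, (beta n).1.mulVec (c • w) = c • w := by
    intro c w h1 n hn
    rw [Matrix.mulVec_smul, h1 n hn]
  have hx : ∀ w : Fin 2 → F, (∀ n ∈ N, (beta n).1.mulVec w = w) →
      ∀ n ∈ N, (beta n).1.mulVec ![w 1, 0] = ![w 1, 0] := by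
    intro w hw
    have h1 := hsub _ _ (hWg (iota xU) w hw) hw
    have h2 : (beta (iota xU)).1.mulVec w - w = ![w 1, 0] := by
      rw [beta_iota, mv]
      ext a
      fin_cases a <;> simp [xU]
    rwa [h2] at h1
  have hy : ∀ w : Fin 2 → F, (∀ n ∈ N, (beta n).1.mulVec w = w) →
      ∀ n ∈ N, (beta n).1.mulVec ![0, w 0] = ![0, w 0] := by
    intro w hw
    have h1 := hsub _ _ (hWg (iota yL) w hw) hw
    have h2 : (beta (iota yL)).1.mulVec w - w = ![0, w 0] := by
      rw [beta_iota, mv]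
      ext a
      fin_cases a <;> simp [yL]
    rwa [h2] at h1
  have he : (∀ n ∈ N, (beta n).1.mulVec ![1, 0] = ![(1 : F), 0]) ∧
      (∀ n ∈ N, (beta n).1.mulVec ![0, 1] = ![(0 : F), 1]) := by
    by_cases hb : v 1 = 0
    · have ha : v 0 ≠ 0 := by
        intro ha
        apply hv0
        ext a
        fin_cases a
        · exact ha.symm
        · exact hb.symm
      have h1 := hsm (v 0)⁻¹ _ (hy v hWv)
      have h2 : (v 0)⁻¹ • ![0, v 0] = ![(0 : F), 1] := by
        ext a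
        fin_cases a <;> simp [ha]
      rw [h2] at h1
      have h3 := hx _ h1
      exact ⟨by simpa using h3, h1⟩
    · have h1 := hsm (v 1)⁻¹ _ (hx v hWv)
      have h2 : (v 1)⁻¹ • ![v 1, 0] = ![(1 : F), 0] := by
        ext a
        fin_cases a <;> simp [hb]
      rw [h2] at h1
      have h3 := hy _ h1
      exact ⟨h1, by simpa using h3⟩
  intro n hn
  rw [MonoidHom.mem_ker]
  have h1 := he.1 n hn
  have h2 := he.2 n hn
  rw [mv] at h1 h2
  have a00 := congrFun h1 0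
  have a10 := congrFun h1 1
  have a01 := congrFun h2 0
  have a11 := congrFun h2 1
  simp at a00 a10 a01 a11
  apply ext_S2 <;> simp [one2_entry, a00, a10, a01, a11]

theorem pCore_eq (p : ℕ) [Fact p.Prime] [Fintype F] [CharP F p] : Cfsg.pCore p (Q F) = T F := by
  apply le_antisymm
  · apply sSup_le
    rintro N ⟨hN, hp⟩
    exact normal_p_le p N hN hp
  · apply le_sSup
    exact ⟨MonoidHom.normal_ker _, T_pgroup p⟩

end Cfsg.Agent.Lib.Helper11.Qd
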